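import Cfsg.Agent.Perm5.Basic
import Mathlib.Data.Fintype.CardEmbedding
import Mathlib.GroupTheory.PGroup
import Mathlib.GroupTheory.GroupAction.SubMulAction.Combination

/-!
Criteria for multiple transitivity.
-/

namespace Cfsg.Agent.Perm5

open MulAction
open scoped Pointwise

variable {G : Type*} [Group G] {α : Type*} [MulAction G α]

theorem card_set_dvd_of_stable [Finite α] (H : Subgroup G) (e : ℕ) (T : Set α)
    (hst : ∀ h ∈ H, ∀ z ∈ T, h • z ∈ T) (hdvd : ∀ z ∈ T, e ∣ Nat.card (orbit H z)) : e ∣ T.ncard := by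
  classical
  haveI := Fintype.ofFinite α
  let f : {z : α // z ∈ T} → Set α := fun z => orbit H z.1
  rw [← Nat.card_coe_set_eq, Nat.card_eq_fintype_card]
  show e ∣ Fintype.card {z : α // z ∈ T}
  rw [← Finset.card_univ, Finset.card_eq_sum_card_image f Finset.univ]
  refine Finset.dvd_sum fun S hS => ?_
  obtain ⟨⟨z, hz⟩, -, rfl⟩ := Finset.mem_image.1 hS
  refine dvd_trans (hdvd z hz) (dvd_of_eq ?_)
  rw [Nat.card_eq_fintype_card, ← Fintype.card_subtype]
  refine Fintype.card_congr ⟨fun w => ⟨⟨w.1, ?_⟩, ?_⟩, fun w => ⟨w.1.1, ?_⟩, fun w => rfl, fun w => rfl⟩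
  · obtain ⟨h, hh⟩ := w.2
    have hh' : (h : G) • z = w.1 := hh
    rw [← hh']; exact hst h h.2 z hz
  · exact MulAction.orbit_eq_iff.2 w.2
  · exact MulAction.orbit_eq_iff.1 w.2

/-- Gleason's counting argument: a group is transitive on an invariant set `D` if for every point of
`D` some subgroup fixing it has all its other orbits on `D` of length divisible by `e > 1`. -/
theorem transitive_on_of_dvd [Finite α] (D : Set α) (e : ℕ) (he : 1 < e)
    (hD : ∀ g : G, ∀ z ∈ D, g • z ∈ D)
    (h : ∀ x ∈ D, ∃ H : Subgroup G, (∀ g ∈ H, g • x = x) ∧ ∀ z ∈ D, z ≠ x → e ∣ Nat.card (orbit H z)) :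
    ∀ x ∈ D, ∀ y ∈ D, ∃ g : G, g • x = y := by
  intro x hx y hy
  by_contra hne
  obtain ⟨H, hHx, hH⟩ := h x hx
  obtain ⟨K, hKy, hK⟩ := h y hy
  have hsub : ∀ z ∈ D, orbit G z ⊆ D := by rintro z hz _ ⟨g, rfl⟩; exact hD g z hz
  have hxy : y ∉ orbit G x := hne
  have hd1 : e ∣ (orbit G x \ {x}).ncard := by
    refine card_set_dvd_of_stable H e _ (fun g hg z hz => ⟨?_, fun e' => hz.2 ?_⟩)
      (fun z hz => hH z (hsub x hx hz.1) hz.2)
    · obtain ⟨k, rfl⟩ := hz.1; exact ⟨g * k, mul_smul _ _ _⟩
    · exact MulAction.injective g (e'.trans (hHx g hg).symm)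
  have hd2 : e ∣ (orbit G x).ncard := by
    refine card_set_dvd_of_stable K e _ (fun g _ z hz => ?_)
      (fun z hz => hK z (hsub x hx hz) fun e' => hxy (e' ▸ hz))
    obtain ⟨k, rfl⟩ := hz; exact ⟨g * k, mul_smul _ _ _⟩
  rw [← Set.ncard_sdiff_singleton_add_one (mem_orbit_self x)] at hd2
  have := (Nat.dvd_add_right hd1).1 hd2
  exact he.ne' (Nat.dvd_one.1 this)

/-- Being able to move one coordinate at a time gives multiple transitivity. -/
theorem isMultiplyPretransitive_of_move [Finite α] {k : ℕ} (hk : k < Nat.card α)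
    (h : ∀ t : Finset α, t.card + 1 = k → ∀ x y : α, x ∉ t → y ∉ t →
      ∃ g : G, (∀ z ∈ t, g • z = z) ∧ g • x = y) :
    IsMultiplyPretransitive G α k := by
  classical
  refine ⟨fun u w => ?_⟩
  have move : ∀ (v : Fin k ↪ α) (i : Fin k) (y : α), (∀ j, j ≠ i → v j ≠ y) →
      ∃ g : G, (∀ j, j ≠ i → g • v j = v j) ∧ g • v i = y := by
    intro v i y hy
    obtain ⟨g, h1, h2⟩ := h ((Finset.univ.erase i).map v)
      (by rw [Finset.card_map, Finset.card_erase_of_mem (Finset.mem_univ i), Finset.card_univ, Fintype.card_fin]; have := i.isLt; omega)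
      (v i) y (by simp) (by simp only [Finset.mem_map, Finset.mem_erase, Finset.mem_univ, and_true, not_exists, not_and]; exact fun j hj => hy j hj)
    exact ⟨g, fun j hj => h1 _ (Finset.mem_map.2 ⟨j, Finset.mem_erase.2 ⟨hj, Finset.mem_univ _⟩, rfl⟩), h2⟩
  have key : ∀ m : ℕ, m ≤ k → ∃ g : G, ∀ i : Fin k, i.val < m → g • u i = w i := by
    intro m
    induction m with
    | zero => exact fun _ => ⟨1, fun i hi => absurd hi (Nat.not_lt_zero _)⟩
    | succ m ih =>
      intro hm
      obtain ⟨g, hg⟩ := ih (by omega)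
      let i : Fin k := ⟨m, by omega⟩
      have hfree : ∃ g' : G, (∀ j : Fin k, j.val < m → g' • u j = w j) ∧ ∀ j, j ≠ i → g' • u j ≠ w i := by
        by_cases hj : ∃ j, j ≠ i ∧ g • u j = w i
        · obtain ⟨j, hji, hjw⟩ := hj
          have hjm : m < j.val := by
            by_contra hle
            rcases Nat.lt_or_eq_of_le (not_lt.1 hle) with hl | hl
            · exact hji (w.injective ((hg j hl).symm.trans hjw))
            · exact hji (Fin.ext hl)
          let v : Fin k ↪ α := g • u
          obtain ⟨z, hz⟩ : ∃ z : α, ∀ l, v l ≠ z := by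
            by_contra! hc
            have hs : Function.Surjective v := hc
            have := Nat.card_le_card_of_surjective v hs
            simp at this; omega
          obtain ⟨g₁, h1, h2⟩ := move v j z fun l _ => hz l
          refine ⟨g₁ * g, fun l hl => ?_, fun l hl => ?_⟩
          · rw [mul_smul, show g • u l = v l from rfl, h1 l (fun e => by subst e; omega)]
            exact hg l hl
          · rw [mul_smul, show g • u l = v l from rfl]
            by_cases hlj : l = j
            · subst hlj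
              rw [h2]
              exact fun e => hz l (hjw.trans e.symm)
            · rw [h1 l hlj, ← hjw]
              exact fun e => hlj (v.injective e)
        · push_neg at hj
          exact ⟨g, hg, hj⟩
      obtain ⟨g', hg', hg''⟩ := hfree
      obtain ⟨g₂, h1, h2⟩ := move (g' • u) i (w i) (fun j hj => hg'' j hj)
      refine ⟨g₂ * g', fun j hj => ?_⟩
      rw [mul_smul]
      by_cases hji : j = i
      · subst hji; exact h2
      · have : j.val < m := lt_of_le_of_ne (by omega) fun e => hji (Fin.ext e)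
        exact (h1 j hji).trans (hg' j this)
  obtain ⟨g, hg⟩ := key k le_rfl
  exact ⟨g, Function.Embedding.ext fun i => hg i i.isLt⟩

/-- Two-homogeneous groups of degree at least three are transitive. -/
theorem transitive_of_pairs [DecidableEq α] (h2 : IsPretransitive G (Set.powersetCard α 2))
    (hα : ∀ x y : α, ∃ z, z ≠ x ∧ z ≠ y) :
    IsPretransitive G α ∧ ∀ a b c d : α, a ≠ b → c ≠ d →
      ∃ g : G, (g • a = c ∧ g • b = d) ∨ (g • a = d ∧ g • b = c) := by
  have key : ∀ a b c d : α, a ≠ b → c ≠ d → ∃ g : G, (g • a = c ∧ g • b = d) ∨ (g • a = d ∧ g • b = c) := by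
    intro a b c d hab hcd
    obtain ⟨g, hg⟩ := h2.exists_smul_eq (⟨{a, b}, Finset.card_pair hab⟩ : Set.powersetCard α 2) ⟨{c, d}, Finset.card_pair hcd⟩
    have hset : g • ({a, b} : Finset α) = {c, d} := congrArg Subtype.val hg
    refine ⟨g, ?_⟩
    have ha : g • a ∈ ({c, d} : Finset α) := hset ▸ Finset.smul_mem_smul_finset (by simp)
    have hb : g • b ∈ ({c, d} : Finset α) := hset ▸ Finset.smul_mem_smul_finset (by simp)
    simp only [Finset.mem_insert, Finset.mem_singleton] at ha hb
    have hne : g • a ≠ g • b := fun e => hab (MulAction.injective g e)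
    rcases ha with ha | ha <;> rcases hb with hb | hb
    · exact absurd (ha.trans hb.symm) hne
    · exact Or.inl ⟨ha, hb⟩
    · exact Or.inr ⟨ha, hb⟩
    · exact absurd (ha.trans hb.symm) hne
  refine ⟨⟨fun x y => ?_⟩, key⟩
  by_cases hxy : x = y
  · exact ⟨1, by rw [hxy, one_smul]⟩
  obtain ⟨z, hzx, hzy⟩ := hα x y
  obtain ⟨g, h1 | h1⟩ := key x z y z hzx.symm hzy.symm
  · exact ⟨g, h1.1⟩
  obtain ⟨k, h3 | h3⟩ := key x y z y hxy hzy
  · exact ⟨g * k, by rw [mul_smul, h3.1]; exact h1.2⟩
  · exact ⟨k, h3.1⟩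

end Cfsg.Agent.Perm5
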