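import Cfsg.Agent.Perm5.SharplyTwo
import Cfsg.Agent.S0681

/-!
The affine group of a near-field.
-/

namespace Cfsg.Agent.Perm5

open MulAction

theorem sharp_of_stabilizer {G : Type*} [Group G] {α : Type*} [MulAction G α]
    (h : ∀ x : Fin 2 ↪ α, stabilizer G x = ⊥) :
    ∀ g : G, ∀ a b : α, a ≠ b → g • a = a → g • b = b → g = 1 := by
  intro g a b hab ha hb
  let x : Fin 2 ↪ α := ⟨![a, b], fun i j hij => by
    fin_cases i <;> fin_cases j <;> first | rfl | exact absurd hij hab | exact absurd hij.symm hab⟩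
  have : g ∈ stabilizer G x := Function.Embedding.ext fun i => by fin_cases i <;> assumption
  rwa [h x, Subgroup.mem_bot] at this

theorem sharp_structure {G : Type*} [Group G] {α : Type*} [MulAction G α] [Finite G] [Finite α]
    [Nontrivial α] [FaithfulSMul G α] (h2 : IsMultiplyPretransitive G α 2)
    (hsharp : ∀ g : G, ∀ a b : α, a ≠ b → g • a = a → g • b = b → g = 1) :
    ∃ (R : Subgroup G) (p j : ℕ), R.Normal ∧ (∀ g, g ∈ R ↔ g = 1 ∨ IsFree α g) ∧
      IsPretransitive R α ∧ (∀ a : α, stabilizer R a = ⊥) ∧ p.Prime ∧ 0 < j ∧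
      Nat.card α = p ^ j ∧ (∀ x ∈ R, ∀ y ∈ R, x * y = y * x) ∧ (∀ x ∈ R, x ^ p = 1) := by
  obtain ⟨R, hn, hm, ht, hr⟩ := exists_sharp_kernel h2 hsharp
  obtain ⟨p, hp, hc, he, j, hj, hcard⟩ := regular_elementary_abelian hn ht hr h2
  exact ⟨R, p, j, hn, hm, ht, hr, hp, hj, hcard, hc, he⟩

end Cfsg.Agent.Perm5
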