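import Cfsg.Agent.Perm5.SharplyTwo
import Mathlib.GroupTheory.Sylow
import Mathlib.Data.Fintype.CardEmbedding

/-!
Normal subgroups of multiply transitive and multiply primitive groups.
-/

namespace Cfsg.Agent.Perm5

open MulAction SubMulAction

theorem natCast_le_enat_card {α : Type*} [Finite α] {k : ℕ} (h : k ≤ Nat.card α) :
    (k : ℕ∞) ≤ ENat.card α := by
  haveI := Fintype.ofFinite α
  rw [ENat.card_eq_coe_fintype_card]
  rw [Nat.card_eq_fintype_card] at h
  exact_mod_cast h

section

variable {G : Type*} [Group G] {α : Type*} [MulAction G α]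

theorem faithful_ofStabilizer [FaithfulSMul G α] (a : α) :
    FaithfulSMul (stabilizer G a) (ofStabilizer G a) := by
  refine ⟨fun {g k} h => Subtype.ext (eq_of_smul_eq_smul fun x : α => ?_)⟩
  by_cases hx : x = a
  · subst hx; exact g.2.trans k.2.symm
  · exact congrArg Subtype.val (h ⟨x, hx⟩)

theorem transitive_of_normal_ne_bot [FaithfulSMul G α] [IsPreprimitive G α] {N : Subgroup G}
    (hn : N.Normal) (hN : N ≠ ⊥) : IsPretransitive N α := by
  haveI := hn
  refine IsQuasiPreprimitive.isPretransitive_of_normal (G := G) fun h => hN ?_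
  rw [eq_bot_iff]
  intro x hx
  rw [Subgroup.mem_bot]
  refine eq_of_smul_eq_smul fun y : α => ?_
  rw [one_smul]
  exact Set.eq_univ_iff_forall.1 h y ⟨x, hx⟩

theorem succ_transitive {N : Subgroup G} (hN : IsPretransitive N α) (a : α) {k : ℕ}
    (h : IsMultiplyPretransitive (N.subgroupOf (stabilizer G a)) (ofStabilizer G a) k) :
    IsMultiplyPretransitive N α (k + 1) := by
  haveI := hN
  refine (ofStabilizer.isMultiplyPretransitive (G := N) (a := a)).2 ⟨fun x y => ?_⟩
  let x' : Fin k ↪ ofStabilizer G a := ⟨fun i => ⟨(x i).1, (x i).2⟩, fun i j e => x.injective (Subtype.ext (congrArg Subtype.val e :))⟩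
  let y' : Fin k ↪ ofStabilizer G a := ⟨fun i => ⟨(y i).1, (y i).2⟩, fun i j e => y.injective (Subtype.ext (congrArg Subtype.val e :))⟩
  obtain ⟨m, hm⟩ := h.exists_smul_eq x' y'
  refine ⟨⟨⟨((m : stabilizer G a) : G), m.2⟩, (m : stabilizer G a).2⟩, Function.Embedding.ext fun i => Subtype.ext ?_⟩
  have := congrArg (fun f : Fin k ↪ ofStabilizer G a => ((f i : ofStabilizer G a) : α)) hm
  exact this

theorem subgroupOf_stabilizer_ne_bot [IsPretransitive G α] {N : Subgroup G} (hn : N.Normal)
    {b : α} (hb : stabilizer N b ≠ ⊥) (a : α) : N.subgroupOf (stabilizer G a) ≠ ⊥ := by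
  intro h
  apply hb
  rw [eq_bot_iff]
  rintro ⟨n, hnN⟩ hnb
  obtain ⟨g, rfl⟩ := exists_smul_eq G a b
  have hfix : (g⁻¹ * n * g) • a = a := by
    rw [mul_smul, mul_smul, inv_smul_eq_iff]; exact hnb
  have hmem : (⟨g⁻¹ * n * g, hfix⟩ : stabilizer G a) ∈ N.subgroupOf (stabilizer G a) := by
    have := hn.conj_mem n hnN g⁻¹
    simpa [Subgroup.mem_subgroupOf] using this
  rw [h, Subgroup.mem_bot] at hmem
  have h' : g⁻¹ * n * g = 1 := congrArg Subtype.val hmem
  rw [Subgroup.mem_bot]
  apply Subtype.ext
  calc n = g * (g⁻¹ * n * g) * g⁻¹ := by group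
    _ = 1 := by rw [h']; group

theorem exists_regular_normal [Finite G] [Finite α] [Nontrivial α] [FaithfulSMul G α]
    {N : Subgroup G} (hn : N.Normal) (hN : IsPretransitive N α) (a : α)
    (ht : IsPretransitive (N.subgroupOf (stabilizer G a)) (ofStabilizer G a))
    (hr : ∀ x, stabilizer (N.subgroupOf (stabilizer G a)) (x : ofStabilizer G a) = ⊥) :
    ∃ R : Subgroup G, R.Normal ∧ IsPretransitive R α ∧ ∀ x : α, stabilizer R x = ⊥ := by
  have h2 : IsMultiplyPretransitive N α 2 := succ_transitive hN a (is_one_pretransitive_iff.2 ht)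
  have hs : ∀ g : N, ∀ u v : α, u ≠ v → g • u = u → g • v = v → g = 1 := by
    rintro ⟨g, hg⟩ u v huv hu hv
    obtain ⟨⟨k, hk⟩, hku⟩ := hN.exists_smul_eq u a
    have hku' : k • u = a := hku
    have hg' : g • u = u := hu
    have hv' : g • v = v := hv
    have h1 : (k * g * k⁻¹) • a = a := by
      rw [← hku', mul_smul, mul_smul, inv_smul_smul, hg']
    have h2 : k • v ≠ a := fun e => huv (MulAction.injective k (hku'.trans e.symm))
    have hmem : (⟨⟨k * g * k⁻¹, h1⟩, N.mul_mem (N.mul_mem hk hg) (N.inv_mem hk)⟩ : N.subgroupOf (stabilizer G a)) ∈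
        stabilizer (N.subgroupOf (stabilizer G a)) (⟨k • v, h2⟩ : ofStabilizer G a) :=
      Subtype.ext (by show (k * g * k⁻¹) • k • v = k • v; rw [mul_smul, mul_smul, inv_smul_smul, hv'])
    rw [hr, Subgroup.mem_bot] at hmem
    have h' : k * g * k⁻¹ = 1 := congrArg (fun z : N.subgroupOf (stabilizer G a) => ((z : stabilizer G a) : G)) hmem
    exact Subtype.ext (by calc g = k⁻¹ * (k * g * k⁻¹) * k := by group
      _ = 1 := by rw [h']; group)
  haveI : FaithfulSMul N α := ⟨fun {g k} h => Subtype.ext (eq_of_smul_eq_smul fun x : α => h x)⟩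
  obtain ⟨R, hRn, hRm, hRt, hRr⟩ := exists_sharp_kernel (G := N) (α := α) h2 hs
  refine ⟨R.map N.subtype, ⟨?_⟩, ⟨fun x y => ?_⟩, fun x => ?_⟩
  · rintro _ ⟨r, hr', rfl⟩ g
    refine ⟨⟨g * r * g⁻¹, hn.conj_mem r r.2 g⟩, (hRm _).2 ?_, rfl⟩
    rcases (hRm r).1 hr' with rfl | hf
    · exact Or.inl (Subtype.ext (by simp))
    · exact Or.inr fun z hz => IsFree.conj (x := (r : G)) (fun w => hf w) g z hz
  · obtain ⟨⟨r, hr'⟩, h⟩ := hRt.exists_smul_eq x y
    exact ⟨⟨r, r, hr', rfl⟩, h⟩
  · rw [eq_bot_iff]
    rintro ⟨_, r, hr', rfl⟩ hx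
    have : (⟨r, hr'⟩ : R) ∈ stabilizer R x := hx
    rw [hRr, Subgroup.mem_bot] at this
    rw [Subgroup.mem_bot]
    exact Subtype.ext (congrArg (fun z : R => ((z : N) : G)) this)

theorem card_le_of_transitive [Finite α] {k : ℕ} (hk : k ≤ Nat.card α) [Finite G]
    (h : IsMultiplyPretransitive G α k) : (Nat.card α).descFactorial k ≤ Nat.card G := by
  classical
  haveI : Fintype α := Fintype.ofFinite α
  have hk' : k ≤ Fintype.card α := by rwa [Nat.card_eq_fintype_card] at hk
  obtain ⟨x⟩ : Nonempty (Fin k ↪ α) := Function.Embedding.nonempty_of_card_le (by simpa using hk')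
  have := Nat.card_le_card_of_surjective (fun g : G => g • x) (fun y => h.exists_smul_eq x y)
  simpa [Nat.card_eq_fintype_card, Fintype.card_embedding_eq] using this

/-- A regular normal subgroup in a triply primitive group forces the symmetric group of degree three or four. -/
theorem factorial_le_of_regular_normal [Finite G] [Finite α] (hα : 3 ≤ Nat.card α)
    (h3 : IsMultiplyPreprimitive G α 3) {R : Subgroup G} (hn : R.Normal) (ht : IsPretransitive R α)
    (hr : ∀ x : α, stabilizer R x = ⊥) : (Nat.card α).factorial ≤ Nat.card G := by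
  haveI : Nontrivial α := Finite.one_lt_card_iff_nontrivial.1 (by omega)
  have h2 : IsMultiplyPreprimitive G α 2 := isMultiplyPreprimitive_of_le G α h3 (by omega)
    (natCast_le_enat_card hα)
  have h := card_le_of_transitive hα h3.isMultiplyPretransitive
  rcases regular_exp_two hn hr h2 with e | e
  · rw [e] at h ⊢; exact h
  · have e4 := regular_card_le_four hn hr hα h3 ht e
    rw [e4] at h ⊢; exact h

end

universe u v

/-- Normal subgroups of a `k`-primitive group other than the symmetric group. -/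
theorem normal_of_multiplyPreprimitive : ∀ (k : ℕ) {G : Type u} [Group G] [Finite G] {α : Type v}
    [MulAction G α] [FaithfulSMul G α] [Finite α], 1 ≤ k → k ≤ Nat.card α →
    IsMultiplyPreprimitive G α k → Nat.card G < (Nat.card α).factorial →
    ∀ (N : Subgroup G), N.Normal → N ≠ ⊥ → (∃ a : α, stabilizer N a ≠ ⊥) →
    IsMultiplyPretransitive N α k := by
  intro k
  induction k with
  | zero => intro G _ _ α _ _ _ h; omega
  | succ k ih =>
    intro G _ _ α _ _ _ _ hkn hG hlt N hn hN hnr
    have hprim : IsPreprimitive G α := (is_one_preprimitive_iff G α).1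
      (isMultiplyPreprimitive_of_le G α hG (by omega) (natCast_le_enat_card hkn))
    haveI := hprim
    have hNt := transitive_of_normal_ne_bot (α := α) hn hN
    rcases Nat.eq_zero_or_pos k with rfl | hk
    · exact is_one_pretransitive_iff.2 hNt
    obtain ⟨a, ha⟩ := hnr
    haveI : Nontrivial α := Finite.one_lt_card_iff_nontrivial.1 (by omega)
    haveI := faithful_ofStabilizer (G := G) a
    haveI := hG
    have hGa : IsMultiplyPreprimitive (stabilizer G a) (ofStabilizer G a) k :=
      isMultiplyPreprimitive_ofStabilizer G α (n := k)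
    have hcard : Nat.card (ofStabilizer G a) = Nat.card α - 1 := nat_card_ofStabilizer_eq G a
    have hMn : (N.subgroupOf (stabilizer G a)).Normal := hn.subgroupOf _
    have hM := subgroupOf_stabilizer_ne_bot hn ha a
    have hprim' : IsPreprimitive (stabilizer G a) (ofStabilizer G a) := (is_one_preprimitive_iff _ _).1
      (isMultiplyPreprimitive_of_le _ _ hGa hk (natCast_le_enat_card (by omega)))
    haveI := hprim'
    by_cases hMr : ∃ b : ofStabilizer G a, stabilizer (N.subgroupOf (stabilizer G a)) b ≠ ⊥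
    · refine succ_transitive hNt a (ih hk (by omega) hGa ?_ _ hMn hM hMr)
      have hidx := (stabilizer G a).card_mul_index
      rw [index_stabilizer_of_transitive] at hidx
      rw [hcard]
      have := Nat.mul_factorial_pred (n := Nat.card α) (by omega)
      by_contra hge
      have := Nat.mul_le_mul_left (Nat.card α) (not_lt.1 hge)
      rw [mul_comm (Nat.card α) (Nat.card (stabilizer G a))] at this
      omega
    · push_neg at hMr
      have hMt := transitive_of_normal_ne_bot (α := ofStabilizer G a) hMn hM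
      rcases Nat.lt_or_ge k 2 with hk2 | hk2
      · obtain rfl : k = 1 := by omega
        exact succ_transitive hNt a (is_one_pretransitive_iff.2 hMt)
      · exfalso
        obtain ⟨R, hRn, hRt, hRr⟩ := exists_regular_normal hn hNt a hMt hMr
        have h3 : IsMultiplyPreprimitive G α 3 :=
          isMultiplyPreprimitive_of_le G α hG (by omega) (natCast_le_enat_card hkn)
        have := factorial_le_of_regular_normal (by omega) h3 hRn hRt hRr
        omega

/-- Jordan's theorem on normal subgroups. -/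
theorem jordan_normal : ∀ (k : ℕ) {G : Type u} [Group G] [Finite G] {α : Type v}
    [MulAction G α] [FaithfulSMul G α] [Finite α], 2 ≤ k → k < Nat.card α →
    IsMultiplyPretransitive G α k → ∀ (N : Subgroup G), N.Normal → N ≠ ⊥ →
    IsMultiplyPretransitive N α (k - 1) ∨
      (k = 3 ∧ (∀ x ∈ N, ∀ y ∈ N, x * y = y * x) ∧ ∀ x ∈ N, x ^ 2 = 1) := by
  intro k
  induction k with
  | zero => intro G _ _ α _ _ _ h; omega
  | succ k ih =>
    intro G _ _ α _ _ _ hk hkn hG N hn hN
    haveI : IsMultiplyPretransitive G α (k + 1) := hG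
    haveI h2 : IsMultiplyPretransitive G α 2 :=
      isMultiplyPretransitive_of_le (n := k + 1) (by omega) (by omega)
    haveI : IsPreprimitive G α := isPreprimitive_of_is_two_pretransitive h2
    have hNt := transitive_of_normal_ne_bot (α := α) hn hN
    rcases Nat.lt_or_ge k 2 with hk1 | hk1
    · left
      obtain rfl : k = 1 := by omega
      exact is_one_pretransitive_iff.2 hNt
    have hcardE : ∀ j, j ≤ k + 1 → (j : ℕ∞) ≤ ENat.card α := fun j hj => natCast_le_enat_card (by omega)
    haveI : Nontrivial α := Finite.one_lt_card_iff_nontrivial.1 (by omega)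
    by_cases hreg : ∀ x : α, stabilizer N x = ⊥
    · obtain ⟨p, hp, hc, he, m, hm, hcard⟩ := regular_elementary_abelian hn hNt hreg h2
      have h2p : IsMultiplyPreprimitive G α 2 := by
        haveI : IsMultiplyPretransitive G α (Nat.succ 2) := isMultiplyPretransitive_of_le (n := k + 1) (by omega) (by omega)
        exact isMultiplyPreprimitive_of_isMultiplyPretransitive_succ G α (hcardE 3 (by omega))
      have he2 := (regular_exp_two hn hreg h2p).resolve_left (by omega)
      rcases Nat.lt_or_ge k 3 with hk3 | hk3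
      · right
        exact ⟨by omega, hc, fun x hx => by rw [pow_two]; exact he2 x hx⟩
      · exfalso
        haveI : IsMultiplyPretransitive G α (Nat.succ 3) := isMultiplyPretransitive_of_le (n := k + 1) (by omega) (by omega)
        have h3 := isMultiplyPreprimitive_of_isMultiplyPretransitive_succ G α (n := 3) (hcardE 4 (by omega))
        have := regular_card_le_four hn hreg (by omega) h3 hNt he2
        omega
    · push_neg at hreg
      obtain ⟨a, ha⟩ := hreg
      haveI := faithful_ofStabilizer (G := G) a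
      haveI : IsPretransitive G α := isPretransitive_of_is_two_pretransitive
      have hGa : IsMultiplyPretransitive (stabilizer G a) (ofStabilizer G a) k :=
        ofStabilizer.isMultiplyPretransitive.1 hG
      have hMn : (N.subgroupOf (stabilizer G a)).Normal := hn.subgroupOf _
      have hM := subgroupOf_stabilizer_ne_bot hn ha a
      have hcard : Nat.card (ofStabilizer G a) = Nat.card α - 1 := nat_card_ofStabilizer_eq G a
      left
      rcases ih hk1 (by omega) hGa _ hMn hM with h | ⟨rfl, hc, -⟩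
      · have := succ_transitive hNt a h
        rwa [show k - 1 + 1 = k + 1 - 1 by omega] at this
      · exfalso
        haveI := hGa
        haveI : IsMultiplyPretransitive (stabilizer G a) (ofStabilizer G a) 2 :=
          isMultiplyPretransitive_of_le (n := 3) (by omega) (by omega)
        haveI : IsPreprimitive (stabilizer G a) (ofStabilizer G a) := isPreprimitive_of_is_two_pretransitive inferInstance
        have hMt := transitive_of_normal_ne_bot (α := ofStabilizer G a) hMn hM
        have hMr := stabilizer_eq_bot_of_commute (α := ofStabilizer G a) hMt hc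
        obtain ⟨R, hRn, hRt, hRr⟩ := exists_regular_normal hn hNt a hMt hMr
        haveI : IsMultiplyPretransitive G α (Nat.succ 3) := hG
        have h3 := isMultiplyPreprimitive_of_isMultiplyPretransitive_succ G α (n := 3) (hcardE 4 (by omega))
        have h3' : IsMultiplyPreprimitive G α 2 := isMultiplyPreprimitive_of_le G α h3 (by omega) (hcardE 3 (by omega))
        have := regular_card_le_four hRn hRr (by omega) h3 hRt ((regular_exp_two hRn hRr h3').resolve_left (by omega))
        omega

/-- Normal subgroups of triply transitive groups of odd degree. -/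
theorem normal_three_transitive_odd {G : Type u} [Group G] [Finite G] {α : Type v}
    [MulAction G α] [FaithfulSMul G α] [Finite α] (hodd : Odd (Nat.card α)) (h5 : 5 ≤ Nat.card α)
    (hG : IsMultiplyPretransitive G α 3) (N : Subgroup G) (hn : N.Normal) (hN : N ≠ ⊥) :
    IsMultiplyPretransitive N α 3 := by
  classical
  haveI := hG
  haveI : Nontrivial α := Finite.one_lt_card_iff_nontrivial.1 (by omega)
  haveI hG2 : IsMultiplyPretransitive G α 2 := isMultiplyPretransitive_of_le (n := 3) (by omega) (by omega)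
  haveI : IsPreprimitive G α := isPreprimitive_of_is_two_pretransitive hG2
  have hNt := transitive_of_normal_ne_bot (α := α) hn hN
  have hne : ∀ R : Subgroup G, R.Normal → IsPretransitive R α → ¬ ∀ x : α, stabilizer R x = ⊥ := by
    intro R hRn hRt hRr
    have h2p : IsMultiplyPreprimitive G α 2 := by
      haveI : IsMultiplyPretransitive G α (Nat.succ 2) := hG
      exact isMultiplyPreprimitive_of_isMultiplyPretransitive_succ G α (natCast_le_enat_card (by omega))
    have he2 := (regular_exp_two hRn hRr h2p).resolve_left (by omega)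
    obtain ⟨p, hp, -, he, m, hm, hcard⟩ := regular_elementary_abelian hRn hRt hRr hG2
    obtain ⟨a, b, hab⟩ := exists_pair_ne α
    obtain ⟨r, hr, hra⟩ := regular_eval_surjective hRt a b
    have hr1 : r ≠ 1 := fun e => hab (by rw [← hra, e, one_smul])
    have hd2 : orderOf r ∣ 2 := orderOf_dvd_of_pow_eq_one (by rw [pow_two]; exact he2 r hr)
    rcases (Nat.dvd_prime hp).1 (orderOf_dvd_of_pow_eq_one (he r hr)) with e | e
    · exact hr1 (orderOf_eq_one_iff.1 e)
    · rw [e, Nat.prime_dvd_prime_iff_eq hp Nat.prime_two] at hd2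
      subst hd2
      rw [hcard] at hodd
      exact Nat.not_odd_iff_even.2 (Nat.even_pow.2 ⟨even_two, by omega⟩) hodd
  have hN2 : IsMultiplyPretransitive N α 2 := by
    rcases jordan_normal 3 (by omega) (by omega) hG N hn hN with h | ⟨-, hc, -⟩
    · exact h
    · exact absurd (stabilizer_eq_bot_of_commute hNt hc) (hne N hn hNt)
  refine ⟨fun x y => ?_⟩
  have main : ∀ a b c d : α, a ≠ b → c ≠ a → c ≠ b → d ≠ a → d ≠ b →
      ∃ n ∈ N, n • a = a ∧ n • b = b ∧ n • c = d := by
    intro a b c d hab hca hcb hda hdb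
    let K : Subgroup G := N ⊓ (stabilizer G a ⊓ stabilizer G b)
    let O : α → Set α := fun x => {y | ∃ k ∈ K, k • x = y}
    have hOsymm : ∀ x y, y ∈ O x → O y = O x := by
      rintro x y ⟨k, hk, rfl⟩
      ext z
      constructor
      · rintro ⟨l, hl, rfl⟩; exact ⟨l * k, K.mul_mem hl hk, mul_smul _ _ _⟩
      · rintro ⟨l, hl, rfl⟩; exact ⟨l * k⁻¹, K.mul_mem hl (K.inv_mem hk), by rw [mul_smul, inv_smul_smul]⟩
    have hKconj : ∀ g : G, g • a = a → g • b = b → ∀ k ∈ K, g * k * g⁻¹ ∈ K := by
      intro g hga hgb k hk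
      refine ⟨hn.conj_mem k hk.1 g, ?_, ?_⟩
      · show (g * k * g⁻¹) • a = a
        rw [conj_smul_base hga, show k • a = a from hk.2.1, hga]
      · show (g * k * g⁻¹) • b = b
        rw [conj_smul_base hgb, show k • b = b from hk.2.2, hgb]
    let rest := {x : α // x ≠ a ∧ x ≠ b}
    have hrest : Nat.card rest + 2 = Nat.card α := by
      haveI : Fintype α := Fintype.ofFinite α
      rw [Nat.card_eq_fintype_card, Nat.card_eq_fintype_card, Fintype.card_subtype]
      have e : (Finset.univ.filter fun x : α => x ≠ a ∧ x ≠ b) = Finset.univ \ {a, b} := by ext x; simp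
      have e2 := Finset.card_sdiff_add_card_eq_card (Finset.subset_univ ({a, b} : Finset α))
      rw [Finset.card_pair hab, Finset.card_univ] at e2
      rw [e]; exact e2
    have htr : ∀ x z : α, x ≠ a → x ≠ b → z ≠ a → z ≠ b → ∃ g : G, g • a = a ∧ g • b = b ∧ g • x = z := by
      intro x z hxa hxb hza hzb
      have hba := hab.symm
      have hax := hxa.symm
      have hbx := hxb.symm
      have haz := hza.symm
      have hbz := hzb.symm
      let u : Fin 3 ↪ α := ⟨![a, b, x], fun i j h => by fin_cases i <;> fin_cases j <;> simp_all⟩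
      let w : Fin 3 ↪ α := ⟨![a, b, z], fun i j h => by fin_cases i <;> fin_cases j <;> simp_all⟩
      obtain ⟨g, hg⟩ := hG.exists_smul_eq u w
      exact ⟨g, congrArg (fun f : Fin 3 ↪ α => f 0) hg, congrArg (fun f : Fin 3 ↪ α => f 1) hg,
        congrArg (fun f : Fin 3 ↪ α => f 2) hg⟩
    have hOimg : ∀ g : G, g • a = a → g • b = b → ∀ x, O (g • x) = (fun z => g • z) '' O x := by
      intro g hga hgb x
      ext z
      constructor
      · rintro ⟨k, hk, rfl⟩
        refine ⟨(g⁻¹ * k * g) • x, ⟨_, ?_, rfl⟩, ?_⟩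
        · have := hKconj g⁻¹ (by rw [inv_smul_eq_iff, hga]) (by rw [inv_smul_eq_iff, hgb]) k hk
          simpa using this
        · show g • _ = _
          rw [mul_smul, mul_smul, smul_inv_smul]
      · rintro ⟨_, ⟨k, hk, rfl⟩, rfl⟩
        exact ⟨g * k * g⁻¹, hKconj g hga hgb k hk, by
          show (g * k * g⁻¹) • g • x = g • k • x
          rw [mul_smul, mul_smul, inv_smul_smul]⟩
    have hOodd : ∀ x, x ≠ a → x ≠ b → Odd (O x).ncard := by
      intro x hxa hxb
      let f : rest → Set α := fun z => O z.1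
      haveI : Fintype rest := Fintype.ofFinite rest
      have hd : (O x).ncard ∣ Nat.card rest := by
        rw [Nat.card_eq_fintype_card, ← Finset.card_univ,
          Finset.card_eq_sum_card_image f Finset.univ]
        refine Finset.dvd_sum fun T hT => ?_
        obtain ⟨⟨z, hza, hzb⟩, -, rfl⟩ := Finset.mem_image.1 hT
        obtain ⟨g, hga, hgb, rfl⟩ := htr x z hxa hxb hza hzb
        refine dvd_of_eq ?_
        rw [← Set.ncard_coe_finset, ← Set.ncard_image_of_injective (O x) (MulAction.injective g),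
          ← hOimg g hga hgb x, ← Set.ncard_image_of_injective _ Subtype.val_injective]
        congr 1
        ext w
        constructor
        · intro hw
          obtain ⟨k, hk, rfl⟩ := hw
          have hka : k • a = a := hk.2.1
          have hkb : k • b = b := hk.2.2
          refine ⟨⟨k • g • x, fun e => hza (MulAction.injective k (e.trans hka.symm)),
            fun e => hzb (MulAction.injective k (e.trans hkb.symm))⟩, ?_, rfl⟩
          simp only [Finset.coe_filter, Finset.mem_univ, true_and, Set.mem_ofPred_eq]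
          exact hOsymm (g • x) (k • g • x) ⟨k, hk, rfl⟩
        · rintro ⟨v, hv, rfl⟩
          have hv' : O v.1 = O (g • x) := by
            simp only [Finset.coe_filter, Finset.mem_univ, true_and, Set.mem_ofPred_eq] at hv
            exact hv
          rw [← hv']
          exact ⟨1, K.one_mem, one_smul _ _⟩
      exact Odd.of_dvd_nat (by obtain ⟨q, hq⟩ := hodd; exact ⟨q - 1, by omega⟩) hd
    -- an element of N interchanging a and b of two-power order
    obtain ⟨⟨t0, ht0N⟩, ht0a, ht0b⟩ := is_two_pretransitive_iff.1 hN2 hab hab.symm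
    let S : Subgroup G :=
      { carrier := {g | g ∈ N ∧ ((g • a = a ∧ g • b = b) ∨ (g • a = b ∧ g • b = a))}
        one_mem' := ⟨N.one_mem, Or.inl ⟨one_smul _ _, one_smul _ _⟩⟩
        mul_mem' := fun {g h} hg hh => ⟨N.mul_mem hg.1 hh.1, by
          rcases hg.2 with ⟨g1, g2⟩ | ⟨g1, g2⟩ <;> rcases hh.2 with ⟨h1, h2⟩ | ⟨h1, h2⟩ <;>
            simp only [mul_smul, h1, h2, g1, g2, and_self, true_or, or_true]⟩
        inv_mem' := fun {g} hg => ⟨N.inv_mem hg.1, by
          rcases hg.2 with ⟨g1, g2⟩ | ⟨g1, g2⟩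
          · exact Or.inl ⟨by rw [inv_smul_eq_iff, g1], by rw [inv_smul_eq_iff, g2]⟩
          · exact Or.inr ⟨by rw [inv_smul_eq_iff, g2], by rw [inv_smul_eq_iff, g1]⟩⟩ }
    have ht0S : t0 ∈ S := ⟨ht0N, Or.inr ⟨ht0a, ht0b⟩⟩
    haveI := Fact.mk Nat.prime_two
    obtain ⟨Q⟩ := (inferInstance : Nonempty (Sylow 2 S))
    let Q' : Subgroup G := (Q : Subgroup S).map S.subtype
    have hQ2 : IsPGroup 2 Q' := Q.isPGroup'.map _
    have hQS : Q' ≤ S := by rintro _ ⟨q, -, rfl⟩; exact q.2
    have hKS : K ≤ S := fun k hk => ⟨hk.1, Or.inl ⟨hk.2.1, hk.2.2⟩⟩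
    have hSK : ∀ g ∈ S, g ∉ K → g • a = b ∧ g • b = a := by
      intro g hg hgK
      rcases hg.2 with h | h
      exacts [absurd (show g ∈ K from ⟨hg.1, h.1, h.2⟩) hgK, h]
    have hidx : K.relIndex S = 2 := by
      rw [Subgroup.relIndex]
      apply Subgroup.index_eq_two_iff.2
      refine ⟨⟨t0, ht0S⟩, fun g => ?_⟩
      simp only [Subgroup.mem_subgroupOf, Subgroup.coe_mul]
      by_cases hgK : (g : G) ∈ K
      · refine Or.inr ⟨hgK, fun h => hab ?_⟩
        have : t0 ∈ K := by simpa using K.mul_mem (K.inv_mem hgK) h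
        exact ((show t0 • a = b from ht0a).symm.trans this.2.1).symm
      · obtain ⟨g1, g2⟩ := hSK g g.2 hgK
        refine Or.inl ⟨⟨N.mul_mem g.2.1 ht0N, ?_, ?_⟩, hgK⟩
        · show ((g : G) * t0) • a = a
          rw [mul_smul, show t0 • a = b from ht0a, g2]
        · show ((g : G) * t0) • b = b
          rw [mul_smul, show t0 • b = a from ht0b, g1]
    have hnot : ¬ Q' ≤ K := by
      intro hle
      have h1 : Nat.card Q' ∣ Nat.card K := Subgroup.card_dvd_of_le hle
      have h2 : Nat.card K * 2 = Nat.card S := by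
        rw [← hidx, Subgroup.relIndex, ← Nat.card_congr (Subgroup.subgroupOfEquivOfLe hKS).toEquiv, Subgroup.card_mul_index]
      have h3 : Nat.card Q' = 2 ^ (Nat.card S).factorization 2 := by
        rw [← Q.card_eq_multiplicity]
        exact Nat.card_congr ((Q : Subgroup S).equivMapOfInjective _ S.subtype_injective).toEquiv.symm
      have hK0 : Nat.card K ≠ 0 := Nat.card_pos.ne'
      rw [h3, ← h2, Nat.factorization_mul hK0 (by norm_num), Finsupp.add_apply, Nat.prime_two.factorization_self] at h1
      exact Nat.pow_succ_factorization_not_dvd hK0 Nat.prime_two h1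
    obtain ⟨t, htQ, htK⟩ := SetLike.not_le_iff_exists.1 hnot
    obtain ⟨hta, htb⟩ := hSK t (hQS htQ) htK
    -- every element of S stabilizes every orbit of K
    let restAct : MulAction Q' rest :=
      { smul := fun q z => ⟨(q : G) • z.1, by
          rcases (hQS q.2).2 with ⟨h1, h2⟩ | ⟨h1, h2⟩
          · exact ⟨fun e => z.2.1 (MulAction.injective (q : G) (e.trans h1.symm)),
              fun e => z.2.2 (MulAction.injective (q : G) (e.trans h2.symm))⟩
          · exact ⟨fun e => z.2.2 (MulAction.injective (q : G) (e.trans h2.symm)),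
              fun e => z.2.1 (MulAction.injective (q : G) (e.trans h1.symm))⟩⟩
        one_smul := fun z => Subtype.ext (one_smul G z.1)
        mul_smul := fun q r z => Subtype.ext (mul_smul (q : G) (r : G) z.1) }
    obtain ⟨x0, hx0⟩ := hQ2.nonempty_fixed_point_of_prime_not_dvd_card rest (by
      obtain ⟨q, hq⟩ := hodd; omega)
    have hx0' : t • x0.1 = x0.1 := congrArg Subtype.val (hx0 ⟨t, htQ⟩)
    have htO : ∀ x, x ≠ a → x ≠ b → t • x ∈ O x := by
      intro x hxa hxb
      obtain ⟨g, hga, hgb, rfl⟩ := htr x0.1 x x0.2.1 x0.2.2 hxa hxb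
      have hk : g⁻¹ * t * g * t⁻¹ ∈ K := by
        refine ⟨N.mul_mem (by simpa using hn.conj_mem t (hQS htQ).1 g⁻¹) (N.inv_mem (hQS htQ).1), ?_, ?_⟩
        · show (g⁻¹ * t * g * t⁻¹) • a = a
          rw [mul_smul, mul_smul, mul_smul, inv_smul_eq_iff.2 htb.symm, hgb, htb, inv_smul_eq_iff, hga]
        · show (g⁻¹ * t * g * t⁻¹) • b = b
          rw [mul_smul, mul_smul, mul_smul, inv_smul_eq_iff.2 hta.symm, hga, hta, inv_smul_eq_iff, hgb]
      refine ⟨g * (g⁻¹ * t * g * t⁻¹) * g⁻¹, hKconj g hga hgb _ hk, ?_⟩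
      rw [mul_smul, inv_smul_smul, mul_smul, mul_smul, inv_smul_eq_iff.2 hx0'.symm, mul_smul, mul_smul, smul_inv_smul]
    have hSO : ∀ q ∈ Q', ∀ x, x ≠ a → x ≠ b → q • x ∈ O x := by
      intro q hq x hxa hxb
      by_cases hqK : q ∈ K
      · exact ⟨q, hqK, rfl⟩
      obtain ⟨q1, q2⟩ := hSK q (hQS hq) hqK
      have hmem : t⁻¹ * q ∈ K := ⟨N.mul_mem (N.inv_mem (hQS htQ).1) (hQS hq).1,
        (show (t⁻¹ * q) • a = a by rw [mul_smul, q1, inv_smul_eq_iff, hta]),
        (show (t⁻¹ * q) • b = b by rw [mul_smul, q2, inv_smul_eq_iff, htb])⟩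
      have hya : (t⁻¹ * q) • x ≠ a := fun e => hxa (MulAction.injective (t⁻¹ * q) (e.trans hmem.2.1.symm))
      have hyb : (t⁻¹ * q) • x ≠ b := fun e => hxb (MulAction.injective (t⁻¹ * q) (e.trans hmem.2.2.symm))
      have h := htO _ hya hyb
      rw [hOsymm x _ ⟨_, hmem, rfl⟩, ← mul_smul, mul_inv_cancel_left] at h
      exact h
    have hfix : ∀ x, x ≠ a → x ≠ b → ∃ z ∈ O x, ∀ q ∈ Q', q • z = z := by
      intro x hxa hxb
      have hne' : ∀ z ∈ O x, z ≠ a ∧ z ≠ b := by
        rintro _ ⟨k, hk, rfl⟩
        exact ⟨fun e => hxa (MulAction.injective k (e.trans hk.2.1.symm)), fun e => hxb (MulAction.injective k (e.trans hk.2.2.symm))⟩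
      let act : MulAction Q' (O x) :=
        { smul := fun q z => ⟨(q : G) • z.1, by
            exact (hOsymm x z.1 z.2).subst (motive := fun T => (q : G) • z.1 ∈ T) (hSO q q.2 z.1 (hne' z.1 z.2).1 (hne' z.1 z.2).2)⟩
          one_smul := fun z => Subtype.ext (one_smul G z.1)
          mul_smul := fun q r z => Subtype.ext (mul_smul (q : G) (r : G) z.1) }
      obtain ⟨z, hz⟩ := hQ2.nonempty_fixed_point_of_prime_not_dvd_card (O x) (by
        rw [Nat.card_coe_set_eq]
        exact fun h => Nat.not_even_iff_odd.2 (hOodd x hxa hxb) (even_iff_two_dvd.2 h))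
      exact ⟨z.1, z.2, fun q hq => congrArg Subtype.val (hz ⟨q, hq⟩)⟩
    obtain ⟨c', hc', hQc⟩ := hfix c hca hcb
    obtain ⟨d', hd', hQd⟩ := hfix d hda hdb
    by_cases hcd : c' = d'
    · subst hcd
      have : d ∈ O c := by
        rw [← hOsymm c c' hc', hOsymm d c' hd']
        exact ⟨1, K.one_mem, one_smul _ _⟩
      obtain ⟨k, hk, hk'⟩ := this
      exact ⟨k, hk.1, hk.2.1, hk.2.2, hk'⟩
    exfalso
    obtain ⟨⟨m, hm⟩, hma, hmb⟩ := is_two_pretransitive_iff.1 hN2 hcd hab
    apply hnot
    -- conjugate Q' into K by m, comparing orders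
    let M : Subgroup G := N ⊓ (stabilizer G c' ⊓ stabilizer G d')
    have hQM : Q' ≤ M := fun q hq => ⟨(hQS hq).1, hQc q hq, hQd q hq⟩
    have hMK : M.map (MulAut.conj m).toMonoidHom ≤ K := by
      rintro _ ⟨q, hq, rfl⟩
      show m * q * m⁻¹ ∈ K
      have hma' : m • c' = a := hma
      have hmb' : m • d' = b := hmb
      refine ⟨hn.conj_mem q hq.1 m, ?_, ?_⟩
      · show (m * q * m⁻¹) • a = a
        rw [mul_smul, mul_smul, inv_smul_eq_iff.2 hma'.symm, show q • c' = c' from hq.2.1, hma']
      · show (m * q * m⁻¹) • b = b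
        rw [mul_smul, mul_smul, inv_smul_eq_iff.2 hmb'.symm, show q • d' = d' from hq.2.2, hmb']
    exfalso
    have h1 : Nat.card Q' ∣ Nat.card K := by
      refine (Subgroup.card_dvd_of_le hQM).trans ?_
      rw [Nat.card_congr (M.equivMapOfInjective (MulAut.conj m).toMonoidHom (MulAut.conj m).injective).toEquiv]
      exact Subgroup.card_dvd_of_le hMK
    have h2 : Nat.card K * 2 = Nat.card S := by
      rw [← hidx, Subgroup.relIndex, ← Nat.card_congr (Subgroup.subgroupOfEquivOfLe hKS).toEquiv, Subgroup.card_mul_index]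
    have h3 : Nat.card Q' = 2 ^ (Nat.card S).factorization 2 := by
      rw [← Q.card_eq_multiplicity]
      exact Nat.card_congr ((Q : Subgroup S).equivMapOfInjective _ S.subtype_injective).toEquiv.symm
    have hK0 : Nat.card K ≠ 0 := Nat.card_pos.ne'
    rw [h3, ← h2, Nat.factorization_mul hK0 (by norm_num), Finsupp.add_apply, Nat.prime_two.factorization_self] at h1
    exact Nat.pow_succ_factorization_not_dvd hK0 Nat.prime_two h1
  obtain ⟨⟨g, hg⟩, hga, hgb⟩ := is_two_pretransitive_iff.1 hN2 (x.injective.ne (show (0 : Fin 3) ≠ 1 by decide))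
    (y.injective.ne (show (0 : Fin 3) ≠ 1 by decide))
  have hga' : g • x 0 = y 0 := hga
  have hgb' : g • x 1 = y 1 := hgb
  obtain ⟨k, hk, hka, hkb, hkc⟩ := main (y 0) (y 1) (g • x 2) (y 2) (y.injective.ne (by decide))
    (fun e => x.injective.ne (show (2 : Fin 3) ≠ 0 by decide) (MulAction.injective g (e.trans hga'.symm)))
    (fun e => x.injective.ne (show (2 : Fin 3) ≠ 1 by decide) (MulAction.injective g (e.trans hgb'.symm)))
    (y.injective.ne (by decide)) (y.injective.ne (by decide))
  refine ⟨⟨k * g, N.mul_mem hk hg⟩, Function.Embedding.ext fun i => ?_⟩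
  show (k * g) • x i = y i
  rw [mul_smul]
  fin_cases i
  · show k • g • x 0 = y 0; rw [hga', hka]
  · show k • g • x 1 = y 1; rw [hgb', hkb]
  · exact hkc

end Cfsg.Agent.Perm5
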