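import Cfsg.Agent.Perm5.Basic
import Mathlib.GroupTheory.PGroup

/-!
Regular normal subgroups and centralizers of transitive subgroups.
-/

namespace Cfsg.Agent.Perm5

open MulAction

variable {G : Type*} [Group G] {α : Type*} [MulAction G α] [FaithfulSMul G α]

/-- An element commuting with a transitive subgroup and fixing a point is trivial. -/
theorem eq_one_of_commute {K : Subgroup G} (hK : IsPretransitive K α) {c : G}
    (hc : ∀ k ∈ K, k * c = c * k) {a : α} (ha : c • a = a) : c = 1 := by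
  refine eq_of_smul_eq_smul fun x : α => ?_
  obtain ⟨⟨k, hk⟩, rfl⟩ := hK.exists_smul_eq a x
  rw [Subgroup.mk_smul, one_smul, ← mul_smul, ← hc k hk, mul_smul, ha]

theorem stabilizer_eq_bot_of_commute {K L : Subgroup G} (hK : IsPretransitive K α)
    (hc : ∀ k ∈ K, ∀ l ∈ L, k * l = l * k) (a : α) : stabilizer L a = ⊥ := by
  rw [eq_bot_iff]
  intro l hl
  rw [Subgroup.mem_bot]
  exact Subtype.ext (eq_one_of_commute hK (fun k hk => hc k hk l l.2) (hl : (l : G) • a = a))

/-- Normal subgroups meeting trivially commute. -/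
theorem commute_of_inf_eq_bot {H : Type*} [Group H] {M N : Subgroup H} (hM : M.Normal)
    (hN : N.Normal) (h : M ⊓ N = ⊥) : ∀ m ∈ M, ∀ n ∈ N, m * n = n * m :=
  fun m hm n hn => (Subgroup.commute_of_normal_of_disjoint M N hM hN (disjoint_iff.2 h) m n hm hn).eq

/-- A minimal normal abelian subgroup of a finite group has prime exponent. -/
theorem minimal_abelian_exponent {H : Type*} [Group H] (M : Subgroup H) [Finite M] (hMn : M.Normal)
    (hM : M ≠ ⊥) (hmin : ∀ L : Subgroup H, L.Normal → L ≤ M → L = ⊥ ∨ L = M)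
    (hab : ∀ x ∈ M, ∀ y ∈ M, x * y = y * x) : ∃ p : ℕ, p.Prime ∧ ∀ m ∈ M, m ^ p = 1 := by
  haveI : Nontrivial M := (Subgroup.nontrivial_iff_ne_bot M).2 hM
  obtain ⟨p, hp, hdvd⟩ := Nat.exists_prime_and_dvd (n := Nat.card M) Finite.one_lt_card.ne'
  haveI := Fact.mk hp
  obtain ⟨x, hx⟩ := exists_prime_orderOf_dvd_card' p hdvd
  let L : Subgroup H :=
    { carrier := {m | m ∈ M ∧ m ^ p = 1}
      one_mem' := ⟨M.one_mem, one_pow _⟩
      mul_mem' := fun {a b} ha hb => ⟨M.mul_mem ha.1 hb.1, by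
        rw [(Commute.mul_pow (hab a ha.1 b hb.1) p), ha.2, hb.2, one_mul]⟩
      inv_mem' := fun {a} ha => ⟨M.inv_mem ha.1, by rw [inv_pow, ha.2, inv_one]⟩ }
  have hLn : L.Normal := ⟨fun m hm g => ⟨hMn.conj_mem m hm.1 g, by rw [conj_pow, hm.2]; simp⟩⟩
  rcases hmin L hLn (fun m hm => hm.1) with h | h
  · have : (x : H) ∈ L := ⟨x.2, by rw [← Subgroup.coe_pow, ← hx, pow_orderOf_eq_one]; rfl⟩
    rw [h, Subgroup.mem_bot, ← orderOf_eq_one_iff, Subgroup.orderOf_coe, hx] at this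
    exact absurd this hp.ne_one
  · exact ⟨p, hp, fun m hm => (h ▸ hm : m ∈ L).2⟩

end Cfsg.Agent.Perm5
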