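import Cfsg.Agent.Perm5.Regular
import Mathlib.GroupTheory.GroupAction.MultiplePrimitivity

/-!
Regular normal subgroups of multiply transitive groups.
-/

namespace Cfsg.Agent.Perm5

open MulAction SubMulAction
open scoped Pointwise

section RN

variable {G : Type*} [Group G] {α : Type*} [MulAction G α] {N : Subgroup G}
  (hn : N.Normal) (ht : IsPretransitive N α) (hr : ∀ x : α, stabilizer N x = ⊥)

include hr in
theorem regular_eval_injective (a : α) {m n : G} (hm : m ∈ N) (hn' : n ∈ N)
    (h : m • a = n • a) : m = n := by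
  have : (⟨n⁻¹ * m, N.mul_mem (N.inv_mem hn') hm⟩ : N) ∈ stabilizer N a := by
    show (n⁻¹ * m) • a = a
    rw [mul_smul, inv_smul_eq_iff]; exact h
  rw [hr a, Subgroup.mem_bot] at this
  have h' : n⁻¹ * m = 1 := congrArg Subtype.val this
  exact (inv_mul_eq_one.1 h').symm

include ht in
theorem regular_eval_surjective (a x : α) : ∃ n ∈ N, n • a = x := by
  obtain ⟨⟨n, hn'⟩, h⟩ := ht.exists_smul_eq a x
  exact ⟨n, hn', h⟩

theorem conj_smul_base {g : G} {a : α} (hg : g • a = a) (n : G) :
    (g * n * g⁻¹) • a = g • n • a := by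
  rw [mul_smul, mul_smul, show g⁻¹ • a = a by rw [inv_smul_eq_iff, hg]]

include hn ht hr in
theorem regular_elementary_abelian [Finite α] [Nontrivial α]
    (h2 : IsMultiplyPretransitive G α 2) :
    ∃ p : ℕ, p.Prime ∧ (∀ x ∈ N, ∀ y ∈ N, x * y = y * x) ∧ (∀ x ∈ N, x ^ p = 1) ∧
      ∃ m : ℕ, 0 < m ∧ Nat.card α = p ^ m := by
  obtain ⟨a, b, hab⟩ := exists_pair_ne α
  have hbij : Function.Bijective (fun n : N => (n : G) • a) :=
    ⟨fun m n h => Subtype.ext (regular_eval_injective hr a m.2 n.2 h),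
     fun x => let ⟨n, hn', h⟩ := regular_eval_surjective ht a x; ⟨⟨n, hn'⟩, h⟩⟩
  haveI : Finite N := Finite.of_injective _ hbij.1
  have hcard : Nat.card N = Nat.card α := Nat.card_eq_of_bijective _ hbij
  have hconj : ∀ m n : G, m ∈ N → n ∈ N → m ≠ 1 → n ≠ 1 → ∃ g : G, g * m * g⁻¹ = n := by
    intro m n hm hn' hm1 hn1
    have hne : ∀ k ∈ N, k ≠ 1 → a ≠ k • a := fun k hk hk1 e =>
      hk1 (regular_eval_injective hr a hk N.one_mem (by rw [one_smul, ← e]))
    obtain ⟨g, hga, hgm⟩ := is_two_pretransitive_iff.1 h2 (hne m hm hm1) (hne n hn' hn1)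
    refine ⟨g, regular_eval_injective hr a (hn.conj_mem m hm g) hn' ?_⟩
    rw [conj_smul_base hga, hgm]
  haveI : Nontrivial N := by
    have : Nat.card N ≠ 1 := by rw [hcard]; exact (Finite.one_lt_card (α := α)).ne'
    rcases subsingleton_or_nontrivial N with h | h
    · exact absurd (Nat.card_unique) this
    · exact h
  obtain ⟨p, hp, hdvd⟩ := Nat.exists_prime_and_dvd (n := Nat.card N) Finite.one_lt_card.ne'
  haveI := Fact.mk hp
  obtain ⟨x, hx⟩ := exists_prime_orderOf_dvd_card' p hdvd
  have hexp : ∀ y ∈ N, y ^ p = 1 := by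
    intro y hy
    by_cases hy1 : y = 1
    · simp [hy1]
    obtain ⟨g, hg⟩ := hconj x y x.2 hy (fun e => hp.ne_one (by rw [← hx, ← Subgroup.orderOf_coe, e, orderOf_one])) hy1
    rw [← hg, conj_pow, ← Subgroup.coe_pow, ← hx, pow_orderOf_eq_one]
    simp
  have hP : IsPGroup p N := fun y => ⟨1, by rw [pow_one]; exact Subtype.ext (hexp y y.2)⟩
  haveI := hP.center_nontrivial
  obtain ⟨⟨z, hz⟩, hz1⟩ := exists_ne (1 : Subgroup.center N)
  have hzc : ∀ y ∈ N, ∀ w ∈ N, y * w = w * y := by
    intro y hy w hw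
    by_cases hy1 : y = 1
    · simp [hy1]
    obtain ⟨g, hg⟩ := hconj z y z.2 hy (fun e => hz1 (Subtype.ext (Subtype.ext e))) hy1
    have hcomm : ∀ v ∈ N, v * (z : G) = z * v := fun v hv =>
      congrArg Subtype.val (Subgroup.mem_center_iff.1 hz ⟨v, hv⟩)
    have h := hcomm (g⁻¹ * w * g) (by simpa using hn.conj_mem w hw g⁻¹)
    rw [← hg]
    calc g * (z : G) * g⁻¹ * w = g * ((z : G) * (g⁻¹ * w * g)) * g⁻¹ := by group
      _ = g * (g⁻¹ * w * g * (z : G)) * g⁻¹ := by rw [h]
      _ = w * (g * (z : G) * g⁻¹) := by group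
  obtain ⟨m, hm⟩ := hP.exists_card_eq
  refine ⟨p, hp, hzc, hexp, m, ?_, hcard ▸ hm⟩
  rcases Nat.eq_zero_or_pos m with rfl | h
  · exact absurd hm (by rw [pow_zero]; exact (Finite.one_lt_card (α := N)).ne')
  · exact h

include hn hr in
/-- A regular normal subgroup of a doubly primitive group has exponent two or degree three. -/
theorem regular_exp_two [Finite α] [Nontrivial α] (h2 : IsMultiplyPreprimitive G α 2) :
    Nat.card α = 3 ∨ ∀ x ∈ N, x * x = 1 := by
  rw [or_iff_not_imp_right]
  intro hx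
  push_neg at hx
  obtain ⟨x, hxN, hx2⟩ := hx
  obtain ⟨a, -, -⟩ := exists_pair_ne α
  haveI := h2.isMultiplyPretransitive
  haveI : IsPretransitive G α := isPretransitive_of_is_two_pretransitive
  have hp : IsPreprimitive (stabilizer G a) (ofStabilizer G a) :=
    (is_one_preprimitive_iff _ _).1 (isMultiplyPreprimitive_ofStabilizer G α (n := 1))
  have hb : x • a ≠ a := fun e => hx2 (by
    rw [regular_eval_injective hr a hxN N.one_mem (by rw [e, one_smul]), one_mul])
  have hc : x⁻¹ • a ≠ a := fun e => hb (by conv_lhs => rw [← e, smul_inv_smul])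
  have hbc : x • a ≠ x⁻¹ • a := fun e => hx2 (by
    have := regular_eval_injective hr a hxN (N.inv_mem hxN) e
    rw [mul_eq_one_iff_eq_inv]; exact this)
  let b' : ofStabilizer G a := ⟨x • a, hb⟩
  let c' : ofStabilizer G a := ⟨x⁻¹ • a, hc⟩
  let B : Set (ofStabilizer G a) := {b', c'}
  have hB : IsBlock (stabilizer G a) B := by
    rw [isBlock_iff_smul_eq_of_mem]
    rintro ⟨g, hg⟩ y hy hgy
    have hg' : g • a = a := hg
    have key : ∀ m, m = x ∨ m = x⁻¹ → (g * m * g⁻¹ = x ∨ g * m * g⁻¹ = x⁻¹) →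
        (g * x * g⁻¹ = x ∨ g * x * g⁻¹ = x⁻¹) := by
      rintro m (rfl | rfl) h
      · exact h
      · rcases h with h | h
        · right; calc g * x * g⁻¹ = (g * x⁻¹ * g⁻¹)⁻¹ := by group
            _ = x⁻¹ := by rw [h]
        · left; calc g * x * g⁻¹ = (g * x⁻¹ * g⁻¹)⁻¹ := by group
            _ = x := by rw [h, inv_inv]
    obtain ⟨m, hm, hmy⟩ : ∃ m, (m = x ∨ m = x⁻¹) ∧ (y : α) = m • a := by
      rcases hy with rfl | rfl
      exacts [⟨x, Or.inl rfl, rfl⟩, ⟨x⁻¹, Or.inr rfl, rfl⟩]
    have hmN : m ∈ N := by rcases hm with rfl | rfl; exacts [hxN, N.inv_mem hxN]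
    have h1 : g * m * g⁻¹ = x ∨ g * m * g⁻¹ = x⁻¹ := by
      rcases hgy with h | h <;> [left; right] <;>
        refine regular_eval_injective hr a (hn.conj_mem m hmN g) (by first | exact hxN | exact N.inv_mem hxN) ?_ <;>
        rw [conj_smul_base hg', ← hmy] <;> exact congrArg Subtype.val h
    have e1 : g • x • a = (g * x * g⁻¹) • a := (conj_smul_base hg' x).symm
    have e2 : g • x⁻¹ • a = (g * x * g⁻¹)⁻¹ • a := by
      rw [show (g * x * g⁻¹)⁻¹ = g * x⁻¹ * g⁻¹ by group, conj_smul_base hg']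
    show _ • ({b', c'} : Set _) = {b', c'}
    rw [Set.smul_set_insert, Set.smul_set_singleton]
    rcases key m hm h1 with h | h
    · rw [show (⟨g, hg⟩ : stabilizer G a) • b' = b' from Subtype.ext (e1.trans (by rw [h])),
        show (⟨g, hg⟩ : stabilizer G a) • c' = c' from Subtype.ext (e2.trans (by rw [h]))]
    · rw [show (⟨g, hg⟩ : stabilizer G a) • b' = c' from Subtype.ext (e1.trans (by rw [h])),
        show (⟨g, hg⟩ : stabilizer G a) • c' = b' from Subtype.ext (e2.trans (by rw [h, inv_inv]))]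
      exact Set.pair_comm _ _
  rcases hp.isTrivialBlock_of_isBlock hB with hs | hu
  · exact absurd (congrArg Subtype.val (hs (Set.mem_insert b' _) (Set.mem_insert_of_mem b' rfl))) hbc
  · have h2' : Set.ncard B = 2 := Set.ncard_pair (fun e => hbc (congrArg Subtype.val e))
    rw [hu, Set.ncard_univ, nat_card_ofStabilizer_eq] at h2'
    omega

include hn hr in
/-- A regular normal subgroup of exponent two in a triply primitive group: degree at most four. -/
theorem regular_card_le_four [Finite α] (hα : 3 ≤ Nat.card α)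
    (h3 : IsMultiplyPreprimitive G α 3) (ht : IsPretransitive N α) (hexp : ∀ x ∈ N, x * x = 1) :
    Nat.card α = 4 := by
  haveI : Nontrivial α := Finite.one_lt_card_iff_nontrivial.1 (by omega)
  obtain ⟨a, b, hab⟩ := exists_pair_ne α
  obtain ⟨n, hnN, rfl⟩ := regular_eval_surjective ht a b
  let s : Set α := {a, n • a}
  have hs : s.encard + 1 = (3 : ℕ) := by
    rw [Set.encard_pair hab]; rfl
  haveI hp := h3.isPreprimitive_ofFixingSubgroup (M := G) (n := 3) hs
  have hinv : n • n • a = a := by rw [← mul_smul, hexp n hnN, one_smul]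
  have hsn : s.ncard = 2 := Set.ncard_pair hab
  obtain ⟨c, hc⟩ : ∃ c, c ∉ s := by
    by_contra! h
    have : s = Set.univ := Set.eq_univ_of_forall h
    rw [this, Set.ncard_univ] at hsn
    omega
  have hd : n • c ∉ s := by
    rintro (h | h)
    · exact hc (Or.inr (by show c = n • a; rw [← h, ← mul_smul, hexp n hnN, one_smul]))
    · exact hc (Or.inl (MulAction.injective n h))
  have hcd : n • c ≠ c := fun e => hab (by
    rw [regular_eval_injective hr c hnN N.one_mem (by rw [e, one_smul]), one_smul])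
  let c' : ofFixingSubgroup G s := ⟨c, hc⟩
  let d' : ofFixingSubgroup G s := ⟨n • c, hd⟩
  let B : Set (ofFixingSubgroup G s) := {c', d'}
  have hB : IsBlock (fixingSubgroup G s) B := by
    rw [isBlock_iff_smul_eq_of_mem]
    rintro ⟨g, hg⟩ y hy hgy
    have hga : g • a = a := (mem_fixingSubgroup_iff G).1 hg a (Or.inl rfl)
    have hgb : g • n • a = n • a := (mem_fixingSubgroup_iff G).1 hg (n • a) (Or.inr rfl)
    have hcomm : g * n * g⁻¹ = n := regular_eval_injective hr a (hn.conj_mem n hnN g) hnN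
      (by rw [conj_smul_base hga, hgb])
    have hgn : g * n = n * g := mul_inv_eq_iff_eq_mul.1 hcomm
    have e2 : ((⟨g, hg⟩ : fixingSubgroup G s) • d' : ofFixingSubgroup G s).1 = n • g • c := by
      show g • n • c = _
      rw [← mul_smul, hgn, mul_smul]
    have hnn : ∀ z : α, n • n • z = z := fun z => by rw [← mul_smul, hexp n hnN, one_smul]
    have hgc : g • c = c ∨ g • c = n • c := by
      rcases hy with rfl | rfl
      · rcases hgy with h | h
        exacts [Or.inl (congrArg Subtype.val h), Or.inr (congrArg Subtype.val h)]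
      · rcases hgy with h | h
        · right; rw [← hnn (g • c), ← e2, congrArg Subtype.val h]
        · left; rw [← hnn (g • c), ← e2, congrArg Subtype.val h]; exact hnn c
    show _ • ({c', d'} : Set _) = {c', d'}
    rw [Set.smul_set_insert, Set.smul_set_singleton]
    rcases hgc with h | h
    · rw [show (⟨g, hg⟩ : fixingSubgroup G s) • c' = c' from Subtype.ext h,
        show (⟨g, hg⟩ : fixingSubgroup G s) • d' = d' from Subtype.ext (by rw [e2, h])]
    · rw [show (⟨g, hg⟩ : fixingSubgroup G s) • c' = d' from Subtype.ext h,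
        show (⟨g, hg⟩ : fixingSubgroup G s) • d' = c' from Subtype.ext (by rw [e2, h, hnn])]
      exact Set.pair_comm _ _
  rcases hp.isTrivialBlock_of_isBlock hB with hs' | hu
  · exact absurd (congrArg Subtype.val (hs' (Set.mem_insert c' _) (Set.mem_insert_of_mem c' rfl))).symm hcd
  · have h2' : Set.ncard B = 2 := Set.ncard_pair (fun e => hcd (congrArg Subtype.val e).symm)
    rw [hu, Set.ncard_univ] at h2'
    have : Nat.card (ofFixingSubgroup G s) = Nat.card ↥(sᶜ) := rfl
    rw [this, Nat.card_coe_set_eq] at h2'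
    have := Set.ncard_add_ncard_compl s
    omega

end RN

end Cfsg.Agent.Perm5
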