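import Cfsg.Agent.Perm5.RegularNormal
import Mathlib.GroupTheory.GroupAction.ConjAct

/-!
Sharply doubly transitive groups have a regular normal subgroup of derangements.
-/

namespace Cfsg.Agent.Perm5

open MulAction

section ST

variable {G : Type*} [Group G] {α : Type*} [MulAction G α]

/-- `Derangement G x` says that `x` fixes no point. -/
def IsFree (α : Type*) {G : Type*} [Group G] [MulAction G α] (x : G) : Prop := ∀ a : α, x • a ≠ a

theorem IsFree.conj {x : G} (hx : IsFree α x) (g : G) : IsFree α (g * x * g⁻¹) := by
  intro a h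
  refine hx (g⁻¹ • a) ?_
  rw [mul_smul, mul_smul] at h
  rw [eq_inv_smul_iff]; exact h

variable [Finite G] [Finite α] [Nontrivial α] [FaithfulSMul G α]
  (h2 : IsMultiplyPretransitive G α 2)
  (hsharp : ∀ g : G, ∀ a b : α, a ≠ b → g • a = a → g • b = b → g = 1)

include h2 hsharp in
theorem sharp_card (a : α) :
    Nat.card (stabilizer G a) = Nat.card α - 1 ∧ Nat.card G = Nat.card α * (Nat.card α - 1) := by
  haveI := h2
  haveI : IsPretransitive G α := isPretransitive_of_is_two_pretransitive
  obtain ⟨b, hb⟩ := exists_ne a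
  have h1 : Nat.card (stabilizer G a) = Nat.card {x : α // x ≠ a} := by
    refine Nat.card_eq_of_bijective (fun g : stabilizer G a => ⟨(g : G) • b, fun e => hb
      (MulAction.injective (g : G) (e.trans g.2.symm))⟩) ⟨fun g k e => ?_, fun x => ?_⟩
    · have e' : (g : G) • b = (k : G) • b := congrArg Subtype.val e
      have := hsharp ((k : G)⁻¹ * g) a b hb.symm
        (by rw [mul_smul, g.2, inv_smul_eq_iff]; exact k.2.symm)
        (by rw [mul_smul, e', inv_smul_smul])
      exact Subtype.ext (inv_mul_eq_one.1 this).symm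
    · obtain ⟨g, hga, hgb⟩ := is_two_pretransitive_iff.1 h2 hb.symm x.2.symm
      exact ⟨⟨g, hga⟩, Subtype.ext hgb⟩
  have h3 : Nat.card {x : α // x ≠ a} = Nat.card α - 1 := by
    classical
    haveI : Fintype α := Fintype.ofFinite α
    rw [Nat.card_eq_fintype_card, Nat.card_eq_fintype_card, Fintype.card_subtype_compl,
      Fintype.card_subtype_eq]
  refine ⟨h1.trans h3, ?_⟩
  rw [← h3, ← h1, ← index_stabilizer_of_transitive G a, Subgroup.index_mul_card]

include hsharp in
theorem sharp_fixed_point_unique {g : G} (hg : g ≠ 1) {a b : α} (ha : g • a = a)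
    (hb : g • b = b) : a = b := by
  by_contra h
  exact hg (hsharp g a b h ha hb)

include h2 hsharp in
theorem sharp_card_free : Nat.card {g : G // IsFree α g} = Nat.card α - 1 := by
  classical
  haveI := h2
  haveI : IsPretransitive G α := isPretransitive_of_is_two_pretransitive
  haveI : Fintype G := Fintype.ofFinite G
  haveI : Fintype α := Fintype.ofFinite α
  obtain ⟨a, -, -⟩ := exists_pair_ne α
  have hG := sum_card_fixedBy_eq_card_orbits_mul_card_group G α
  have h1 : Fintype.card (orbitRel.Quotient G α) = 1 :=
    le_antisymm (Fintype.card_le_one_iff_subsingleton.2 ((pretransitive_iff_subsingleton_quotient G α).1 inferInstance))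
      (Fintype.card_pos_iff.2 ⟨Quotient.mk'' a⟩)
  rw [h1, one_mul, ← Finset.sum_erase_add _ _ (Finset.mem_univ (1 : G))] at hG
  have hone : Fintype.card (fixedBy α (1 : G)) = Fintype.card α :=
    Fintype.card_congr ((Equiv.setCongr (fixedBy_one_eq_univ α G)).trans (Equiv.Set.univ α))
  have hsum : ∑ g ∈ Finset.univ.erase (1 : G), Fintype.card (fixedBy α g) =
      ((Finset.univ.erase (1 : G)).filter (fun g => ¬ IsFree α g)).card := by
    rw [Finset.card_filter]
    refine Finset.sum_congr rfl fun g hg => ?_
    by_cases hf : IsFree α g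
    · rw [if_neg (not_not.2 hf), Fintype.card_eq_zero_iff]
      exact ⟨fun x => hf x.1 x.2⟩
    · rw [if_pos hf, Fintype.card_eq_one_iff]
      obtain ⟨x, hx⟩ := not_forall.1 hf
      exact ⟨⟨x, not_not.1 hx⟩, fun y => Subtype.ext
        (sharp_fixed_point_unique hsharp (Finset.ne_of_mem_erase hg) y.2 (not_not.1 hx))⟩
  have hsplit := Finset.card_filter_add_card_filter_not (s := Finset.univ.erase (1 : G)) (fun g => IsFree α g)
  rw [Finset.card_erase_of_mem (Finset.mem_univ _), Finset.card_univ] at hsplit
  have hfree : ((Finset.univ.erase (1 : G)).filter (fun g => IsFree α g)) = Finset.univ.filter (fun g => IsFree α g) := by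
    ext g
    simp only [Finset.mem_filter, Finset.mem_erase, Finset.mem_univ, and_true, true_and, and_iff_right_iff_imp]
    rintro hf rfl
    exact hf a (one_smul G a)
  rw [hfree] at hsplit
  rw [hsum, hone] at hG
  rw [Nat.card_eq_fintype_card, Nat.card_eq_fintype_card, Fintype.card_subtype]
  have : 0 < Fintype.card α := Fintype.card_pos_iff.2 ⟨a⟩
  omega

include hsharp in
theorem sharp_commute_free {x c : G} (hx : IsFree α x) (hc : c * x = x * c) (hc1 : c ≠ 1) :
    IsFree α c := by
  intro a ha
  refine hx a (sharp_fixed_point_unique hsharp hc1 ?_ ha)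
  rw [← mul_smul, hc, mul_smul, ha]

include h2 hsharp in
theorem sharp_centralizer {x : G} (hx : IsFree α x) :
    ∀ c : G, (c * x = x * c ↔ c = 1 ∨ IsFree α c) := by
  classical
  haveI : Fintype G := Fintype.ofFinite G
  haveI : Fintype α := Fintype.ofFinite α
  obtain ⟨a, -, -⟩ := exists_pair_ne α
  obtain ⟨hs, hG⟩ := sharp_card h2 hsharp a
  have hD := sharp_card_free h2 hsharp (α := α) (G := G)
  let C := Subgroup.centralizer ({x} : Set G)
  have hmemC : ∀ c, c ∈ C ↔ c * x = x * c := fun c => by
    rw [Subgroup.mem_centralizer_singleton_iff]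
  -- the conjugates of `x` are derangements
  have hle : Nat.card C ≤ Nat.card α := by
    have hf : ∀ c : C, c ≠ 1 → IsFree α (c : G) := fun c hc =>
      sharp_commute_free hsharp hx ((hmemC c).1 c.2) (fun e => hc (Subtype.ext e))
    have := Nat.card_le_card_of_injective (β := Option {g : G // IsFree α g})
      (fun c : C => if h : c = 1 then none else some ⟨c, hf c h⟩) (fun c d e => by
        simp only at e
        split_ifs at e with h1 h2
        · rw [h1, h2]
        · simp only [Option.some.injEq, Subtype.mk.injEq] at e; exact Subtype.ext e)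
    rw [Finite.card_option, hD] at this
    have : 0 < Nat.card α := Nat.card_pos_iff.2 ⟨⟨a⟩, inferInstance⟩
    omega
  have hidx : C.index ≤ Nat.card α - 1 := by
    rw [← hD, Subgroup.index]
    refine Nat.card_le_card_of_injective (fun q : G ⧸ C => ⟨q.out * x * q.out⁻¹, hx.conj q.out⟩) ?_
    intro q r e
    have e' : q.out * x * q.out⁻¹ = r.out * x * r.out⁻¹ := congrArg Subtype.val e
    rw [← Quotient.out_eq q, ← Quotient.out_eq r]
    show (QuotientGroup.mk q.out : G ⧸ C) = QuotientGroup.mk r.out
    rw [QuotientGroup.eq, hmemC]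
    calc q.out⁻¹ * r.out * x = q.out⁻¹ * (r.out * x * r.out⁻¹) * r.out := by group
      _ = q.out⁻¹ * (q.out * x * q.out⁻¹) * r.out := by rw [e']
      _ = x * (q.out⁻¹ * r.out) := by group
  have hcard : Nat.card C = Nat.card α := by
    refine le_antisymm hle ?_
    have h := C.card_mul_index
    have hpos : 0 < Nat.card α - 1 := by
      have := Finite.one_lt_card (α := α); omega
    by_contra hlt
    have : Nat.card C * C.index < Nat.card α * (Nat.card α - 1) :=
      lt_of_le_of_lt (Nat.mul_le_mul_left _ hidx) ((Nat.mul_lt_mul_right hpos).2 (by omega))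
    omega
  have hset : C.carrier.toFinset = insert 1 (Finset.univ.filter (fun g => IsFree α g)) := by
    refine Finset.eq_of_subset_of_card_le ?_ ?_
    · intro c hc
      simp only [Set.mem_toFinset, Finset.mem_insert, Finset.mem_filter, Finset.mem_univ, true_and] at hc ⊢
      exact or_iff_not_imp_left.2 fun h => sharp_commute_free hsharp hx ((hmemC c).1 hc) h
    · rw [Finset.card_insert_of_notMem (by simpa using fun h : IsFree α (1 : G) => h a (one_smul G a))]
      have e1 : (Finset.univ.filter (fun g : G => IsFree α g)).card = Nat.card α - 1 := by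
        rw [← hD, Nat.card_eq_fintype_card, Fintype.card_subtype]
      have e2 : C.carrier.toFinset.card = Nat.card α := by
        rw [← hcard, Nat.card_eq_fintype_card, Set.toFinset_card]; rfl
      have : 0 < Nat.card α := Nat.card_pos_iff.2 ⟨⟨a⟩, inferInstance⟩
      omega
  intro c
  rw [← hmemC]
  have := congrArg (c ∈ ·) hset
  simpa using this

include h2 hsharp in
/-- The regular normal subgroup. -/
theorem exists_sharp_kernel : ∃ R : Subgroup G, R.Normal ∧ (∀ g, g ∈ R ↔ g = 1 ∨ IsFree α g) ∧
    IsPretransitive R α ∧ ∀ a : α, stabilizer R a = ⊥ := by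
  classical
  haveI := h2
  haveI : IsPretransitive G α := isPretransitive_of_is_two_pretransitive
  haveI : Fintype α := Fintype.ofFinite α
  obtain ⟨x, hx⟩ := exists_derangement (G := G) (α := α)
  have hC := sharp_centralizer h2 hsharp (α := α) hx
  let R : Subgroup G :=
    { carrier := {g | g = 1 ∨ IsFree α g}
      one_mem' := Or.inl rfl
      mul_mem' := fun {a b} ha hb => (hC _).1 (by
        rw [mul_assoc, (hC b).2 hb, ← mul_assoc, (hC a).2 ha, mul_assoc])
      inv_mem' := fun {a} ha => (hC _).1 (by
        rw [inv_mul_eq_iff_eq_mul, ← mul_assoc, (hC a).2 ha, mul_inv_cancel_right]) }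
  have hn : R.Normal := ⟨fun n hn g => by
    rcases hn with rfl | hn
    · exact Or.inl (by group)
    · exact Or.inr (hn.conj g)⟩
  have hreg : ∀ a : α, stabilizer R a = ⊥ := fun a => by
    rw [eq_bot_iff]
    rintro ⟨g, hg⟩ hga
    rcases hg with rfl | hf
    · exact Subgroup.mem_bot.2 rfl
    · exact absurd hga (hf a)
  refine ⟨R, hn, fun g => Iff.rfl, ?_, hreg⟩
  obtain ⟨a, -, -⟩ := exists_pair_ne α
  have hcard : Nat.card R = Nat.card α := by
    have e := Nat.card_congr (Equiv.subtypeEquivRight (p := fun g => g ∈ R) (q := fun g => g = 1 ∨ IsFree α g) fun g => Iff.rfl)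
    rw [e]
    haveI : Fintype G := Fintype.ofFinite G
    rw [Nat.card_eq_fintype_card, Fintype.card_subtype, Finset.filter_or, Finset.card_union_of_disjoint]
    · rw [show (Finset.univ.filter fun x : G => x = 1) = {1} by ext; simp, Finset.card_singleton]
      have hD := sharp_card_free h2 hsharp (α := α) (G := G)
      have hD' : (Finset.univ.filter (IsFree α (G := G))).card = Nat.card {g : G // IsFree α g} := by
        rw [Nat.card_eq_fintype_card, Fintype.card_subtype]

      have : 0 < Nat.card α := Nat.card_pos_iff.2 ⟨⟨a⟩, inferInstance⟩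
      show 1 + (Finset.univ.filter (IsFree α (G := G))).card = _
      omega
    · rw [Finset.disjoint_filter]
      rintro g - rfl hf
      exact hf a (one_smul G a)
  have hinj : Function.Injective (fun r : R => r • a) := fun r s e => by
    have : s⁻¹ * r ∈ stabilizer R a := by
      rw [mem_stabilizer_iff, mul_smul, inv_smul_eq_iff]; exact e
    rw [hreg, Subgroup.mem_bot, inv_mul_eq_one] at this
    exact this.symm
  haveI : Finite R := inferInstance
  have hbij : Function.Bijective (fun r : R => r • a) :=
    hinj.bijective_of_nat_card_le hcard.ge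
  exact ⟨fun u v => by
    obtain ⟨r, rfl⟩ := hbij.2 u
    obtain ⟨s, rfl⟩ := hbij.2 v
    exact ⟨s * r⁻¹, by simp only; rw [mul_smul, inv_smul_smul]⟩⟩

end ST

end Cfsg.Agent.Perm5
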